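import Cfsg.Agent.Lib.OmegaSeven.Tables
import Cfsg.Agent.Lib.OmegaSeven.Ent0
import Cfsg.Agent.Lib.OmegaSeven.Ent1
import Cfsg.Agent.Lib.OmegaSeven.Ent2

/-!
The checks on the tables.
-/

set_option autoImplicit false

namespace Cfsg.Agent.Lib.OmegaSeven

/-- A root element. -/
def gen (k : ℕ) : Cols := genTab.getD k []

/-- Left table. -/
def pre (hi : ℕ) : Cols := (preTab.getD (hi / 9) []).getD (hi % 9) []

/-- Right table. -/
def suf (lo : ℕ) : Cols := (sufTab.getD (lo / 9) []).getD (lo % 9) []

/-- The element of a code. -/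
def wd (c : ℕ) : List Cols := [pre (c / 81), suf (c % 81)]

/-- Conjugating words. -/
def gw (j : ℕ) : List Cols :=
  bif decide (j < 18) then [gen j] else [gen (j - 18), gen (j - 18)]

/-- All certificates. -/
def entAll : List (List (List ℕ)) := [entTab0, entTab1, entTab2, entTab3, entTab4, entTab5, entTab6, entTab7, entTab8, entTab9, entTab10, entTab11, entTab12, entTab13, entTab14, entTab15, entTab16, entTab17, entTab18, entTab19, entTab20, entTab21, entTab22, entTab23, entTab24, entTab25, entTab26]

/-- Certificate of a code. -/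
def ent (c : ℕ) : ℕ :=
  ((entAll.getD (c / 729) []).getD (c % 729 / 27) []).getD (c % 27) 0

/-- Kind. -/
def eKind (e : ℕ) : ℕ := e % 4

/-- Auxiliary index. -/
def eIdx (e : ℕ) : ℕ := e / 4 % 64

/-- Parent. -/
def ePar (e : ℕ) : ℕ := e / 256 % 32768

/-- Depth. -/
def eDep (e : ℕ) : ℕ := e / 8388608

/-- Parent is valid. -/
def parOk (e : ℕ) : Bool :=
  decide (ePar e < 19683) && (eKind (ent (ePar e)) != 0) && decide (eDep (ent (ePar e)) < eDep e)

/-- The check of one code. -/
def okEnt (c e : ℕ) : Bool :=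
  bif eKind e == 0 then (c == 0 || neW (wd c ++ (wd c ++ wd c)) [] (eIdx e))
  else bif eKind e == 1 then (decide (eIdx e < 7) && (repCodes.getD (eIdx e) 0 == c))
  else bif eKind e == 2 then
    (decide (eIdx e < 36) && parOk e &&
      eqW (gw (eIdx e) ++ wd c) (wd (ePar e) ++ gw (eIdx e)))
  else (parOk e && eqW (wd c ++ wd c) (wd (ePar e)))

/-- The check of a block of 729 codes. -/
def okBlk (b : ℕ) : Bool := (List.range 729).all fun r => okEnt (729 * b + r) (ent (729 * b + r))

end Cfsg.Agent.Lib.OmegaSeven
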