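import Cfsg.Prelude.Def_Classical
import Mathlib

/-!
Bit-plane vectors over `ZMod 3` for the seven dimensional orthogonal group.
-/

set_option autoImplicit false

namespace Cfsg.Agent.Lib.OmegaSeven

open Matrix

/-- The index set. -/
abbrev Idx : Type := Unit ⊕ (Fin 3 ⊕ Fin 3)

/-- Position of an index. -/
def pos : Idx → ℕ
  | .inl _ => 0
  | .inr (.inl i) => 1 + i.val
  | .inr (.inr i) => 4 + i.val

/-- A packed vector: the positions of the ones and of the twos. -/
abbrev Vc : Type := ℕ × ℕ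

/-- Lane value. -/
def lane : Bool → Bool → ZMod 3
  | true, false => 1
  | false, true => 2
  | _, _ => 0

/-- Lane of a vector. -/
def ln (v : Vc) (k : ℕ) : ZMod 3 := lane (v.1.testBit k) (v.2.testBit k)

/-- Validity. -/
def Ok (v : Vc) : Prop := v.1 &&& v.2 = 0

/-- Decoding. -/
def dec (v : Vc) : Idx → ZMod 3 := fun i => ln v (pos i)

/-- Sum. -/
def vadd (u v : Vc) : Vc :=
  let t := (u.1 ||| v.2) ^^^ (u.2 ||| v.1)
  ((u.2 ||| v.2) ^^^ t, (u.1 ||| v.1) ^^^ t)

/-- Negation. -/
def vneg (u : Vc) : Vc := (u.2, u.1)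

theorem ok_iff {v : Vc} : Ok v ↔ ∀ k, (v.1.testBit k && v.2.testBit k) = false := by
  constructor
  · intro h k
    rw [← Nat.testBit_and, h, Nat.zero_testBit]
  · intro h
    exact Nat.eq_of_testBit_eq fun k => by rw [Nat.testBit_and, h, Nat.zero_testBit]

theorem ok_vneg {u : Vc} (h : Ok u) : Ok (vneg u) := by
  show u.2 &&& u.1 = 0
  rw [Nat.and_comm]
  exact h

theorem lane_facts : ∀ a b c d : Bool, (a && b) = false → (c && d) = false →
    let t := xor (a || d) (b || c)
    ((xor (b || d) t) && (xor (a || c) t)) = false ∧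
      lane (xor (b || d) t) (xor (a || c) t) = lane a b + lane c d := by decide

theorem vadd_facts {u v : Vc} (hu : Ok u) (hv : Ok v) :
    Ok (vadd u v) ∧ ∀ k, ln (vadd u v) k = ln u k + ln v k := by
  have key := fun k => lane_facts (u.1.testBit k) (u.2.testBit k) (v.1.testBit k) (v.2.testBit k)
    (ok_iff.1 hu k) (ok_iff.1 hv k)
  refine ⟨ok_iff.2 fun k => ?_, fun k => ?_⟩
  · simp only [vadd, Nat.testBit_xor, Nat.testBit_or]
    exact (key k).1
  · simp only [ln, vadd, Nat.testBit_xor, Nat.testBit_or]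
    exact (key k).2

theorem ln_vneg (u : Vc) (k : ℕ) : ln (vneg u) k = -ln u k := by
  simp only [ln, vneg]
  cases u.1.testBit k <;> cases u.2.testBit k <;> decide

theorem ln_zero (k : ℕ) : ln (0, 0) k = 0 := by simp [ln, lane]

/-- A column times a scalar. -/
def sel (c : Vc) (a b : Bool) : Vc := bif a then c else bif b then vneg c else (0, 0)

theorem sel_facts {c : Vc} (hc : Ok c) (a b : Bool) (hab : (a && b) = false) :
    Ok (sel c a b) ∧ ∀ k, ln (sel c a b) k = lane a b * ln c k := by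
  cases a <;> cases b
  · exact ⟨show (0 : ℕ) &&& 0 = 0 from rfl, fun k => by simp [sel, ln_zero, lane]⟩
  · refine ⟨ok_vneg hc, fun k => ?_⟩
    show ln (vneg c) k = 2 * ln c k
    rw [ln_vneg]
    generalize ln c k = x
    revert x
    decide
  · exact ⟨hc, fun k => by simp [sel, lane]⟩
  · simp at hab

/-- Matrix times vector; the list holds the columns. -/
def app : List Vc → ℕ → Vc → Vc
  | [], _, _ => (0, 0)
  | c :: cs, k, v => vadd (sel c (v.1.testBit k) (v.2.testBit k)) (app cs (k + 1) v)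

theorem app_facts : ∀ (L : List Vc) (k : ℕ) (v : Vc), (∀ c ∈ L, Ok c) → Ok v →
    Ok (app L k v) ∧ ∀ l, ln (app L k v) l = ∑ j : Fin L.length, ln L[j] l * ln v (k + j)
  | [], k, v, _, _ => ⟨show (0 : ℕ) &&& 0 = 0 from rfl, fun l => by simp [app, ln_zero]⟩
  | c :: cs, k, v, hL, hv => by
    have h1 := sel_facts (hL c List.mem_cons_self) _ _ (ok_iff.1 hv k)
    have h2 := app_facts cs (k + 1) v (fun x hx => hL x (List.mem_cons_of_mem _ hx)) hv
    have h3 := vadd_facts h1.1 h2.1
    refine ⟨h3.1, fun l => ?_⟩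
    show ln (vadd _ _) l = _
    rw [h3.2, h1.2, h2.2]
    show _ = ∑ j : Fin (cs.length + 1), _
    rw [Fin.sum_univ_succ]
    congr 1
    · rw [mul_comm]
      rfl
    · refine Finset.sum_congr rfl fun j _ => ?_
      show _ = ln cs[j] l * ln v (k + (j.val + 1))
      rw [Nat.add_assoc, Nat.add_comm 1]

/-- A matrix given by its columns. -/
abbrev Cols : Type := List Vc

/-- Seven valid columns. -/
def Good (L : Cols) : Bool := L.length == 7 && L.all fun c => c.1 &&& c.2 == 0

/-- The matrix of a list of columns. -/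
def toMat (L : Cols) : Matrix Idx Idx (ZMod 3) := fun i j => ln (L.getD (pos j) (0, 0)) (pos i)

/-- Apply. -/
def ap (L : Cols) (v : Vc) : Vc := app L 0 v

theorem good_facts {L : Cols} (h : Good L = true) : L.length = 7 ∧ ∀ c ∈ L, Ok c := by
  simp only [Good, Bool.and_eq_true, beq_iff_eq, List.all_eq_true] at h
  exact ⟨h.1, h.2⟩

theorem ap_spec {L : Cols} (hL : Good L = true) {v : Vc} (hv : Ok v) :
    Ok (ap L v) ∧ dec (ap L v) = toMat L *ᵥ dec v := by
  obtain ⟨hlen, hok⟩ := good_facts hL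
  obtain ⟨h1, h2⟩ := app_facts L 0 v hok hv
  refine ⟨h1, funext fun i => ?_⟩
  show ln (app L 0 v) (pos i) = _
  rw [h2]
  match L, hlen with
  | [a, b, c, d, e, f, g], _ =>
    show ∑ j : Fin 7, _ = _
    simp only [Matrix.mulVec, dotProduct, toMat, dec]
    generalize pos i = l
    simp [Fin.sum_univ_succ, pos]
    ring

/-- The unit vectors. -/
def unitV (k : ℕ) : Vc := (2 ^ k, 0)

theorem ok_unitV (k : ℕ) : Ok (unitV k) := Nat.and_zero _

theorem pos_lt (i : Idx) : pos i < 7 := by
  rcases i with u | i | i <;> simp [pos] <;> omega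

theorem pos_injective : Function.Injective pos := by decide

theorem dec_unitV (j : Idx) : dec (unitV (pos j)) = Pi.single j 1 := by
  funext i
  simp only [dec, ln, unitV, Nat.zero_testBit, Nat.testBit_two_pow]
  rcases eq_or_ne i j with rfl | h
  · simp [lane]
  · have : ¬ pos j = pos i := fun e => h (pos_injective e).symm
    simp [this, lane, h]

/-- Apply a word of matrices, first letter outermost. -/
def apW : List Cols → Vc → Vc
  | [], v => v
  | L :: w, v => ap L (apW w v)

/-- Valid word. -/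
def GoodW (w : List Cols) : Bool := w.all Good

/-- Product of a word. -/
def wMat (w : List Cols) : Matrix Idx Idx (ZMod 3) := (w.map toMat).prod

theorem apW_spec : ∀ {w : List Cols}, GoodW w = true → ∀ {v : Vc}, Ok v →
    Ok (apW w v) ∧ dec (apW w v) = wMat w *ᵥ dec v
  | [], _, v, hv => ⟨hv, by simp [apW, wMat]⟩
  | L :: w, h, v, hv => by
    simp only [GoodW, List.all_cons, Bool.and_eq_true] at h
    obtain ⟨h1, h2⟩ := apW_spec (w := w) h.2 hv
    obtain ⟨h3, h4⟩ := ap_spec h.1 h1
    refine ⟨h3, ?_⟩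
    show dec (ap L (apW w v)) = _
    rw [h4, h2, Matrix.mulVec_mulVec]
    simp [wMat]

/-- Equality of two words on the unit vectors. -/
def eqW (a b : List Cols) : Bool :=
  GoodW a && GoodW b && (List.range 7).all fun k => apW a (unitV k) == apW b (unitV k)

theorem eqW_spec {a b : List Cols} (h : eqW a b = true) : wMat a = wMat b := by
  simp only [eqW, Bool.and_eq_true, List.all_eq_true, List.mem_range, beq_iff_eq] at h
  refine Matrix.ext_of_mulVec_single fun j => ?_
  rw [← dec_unitV j, ← (apW_spec h.1.1 (ok_unitV _)).2, ← (apW_spec h.1.2 (ok_unitV _)).2,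
    h.2 _ (pos_lt j)]

/-- Two words differ at a unit vector. -/
def neW (a b : List Cols) (k : ℕ) : Bool :=
  GoodW a && GoodW b && decide (k < 7) &&
    (let u := apW a (unitV k); let v := apW b (unitV k);
      !(u.1 % 128 == v.1 % 128 && u.2 % 128 == v.2 % 128))

theorem lane_inj : ∀ a b c d : Bool, (a && b) = false → (c && d) = false →
    lane a b = lane c d → a = c ∧ b = d := by decide

theorem dec_inj {u v : Vc} (hu : Ok u) (hv : Ok v) (h : dec u = dec v) :
    u.1 % 128 = v.1 % 128 ∧ u.2 % 128 = v.2 % 128 := by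
  have hk : ∀ k, k < 7 → u.1.testBit k = v.1.testBit k ∧ u.2.testBit k = v.2.testBit k := by
    intro k hk
    obtain ⟨i, rfl⟩ : ∃ i, pos i = k :=
      (by decide : ∀ k, k < 7 → ∃ i, pos i = k) k hk
    exact lane_inj _ _ _ _ (ok_iff.1 hu _) (ok_iff.1 hv _) (congrFun h i)
  constructor <;> refine Nat.eq_of_testBit_eq fun k => ?_
  · rw [show (128 : ℕ) = 2 ^ 7 from rfl, Nat.testBit_mod_two_pow, Nat.testBit_mod_two_pow]
    by_cases h7 : k < 7
    · simp [h7, (hk k h7).1]
    · simp [h7]
  · rw [show (128 : ℕ) = 2 ^ 7 from rfl, Nat.testBit_mod_two_pow, Nat.testBit_mod_two_pow]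
    by_cases h7 : k < 7
    · simp [h7, (hk k h7).2]
    · simp [h7]

theorem neW_spec {a b : List Cols} {k : ℕ} (h : neW a b k = true) : wMat a ≠ wMat b := by
  simp only [neW, Bool.and_eq_true, decide_eq_true_eq, Bool.not_eq_true', Bool.and_eq_false_iff,
    beq_eq_false_iff_ne] at h
  obtain ⟨⟨⟨ha, hb⟩, hk⟩, hne⟩ := h
  intro e
  have hd : dec (apW a (unitV k)) = dec (apW b (unitV k)) := by
    rw [(apW_spec ha (ok_unitV _)).2, (apW_spec hb (ok_unitV _)).2, e]
  obtain ⟨h1, h2⟩ := dec_inj (apW_spec ha (ok_unitV _)).1 (apW_spec hb (ok_unitV _)).1 hd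
  rcases hne with h' | h'
  · exact h' h1
  · exact h' h2

/-- All vectors supported below `n`. -/
def allV : ℕ → List Vc
  | 0 => [(0, 0)]
  | n + 1 => (allV n).flatMap fun v => [v, (v.1 + 2 ^ n, v.2), (v.1, v.2 + 2 ^ n)]

theorem testBit_add_pow {x n : ℕ} (hx : x < 2 ^ n) (k : ℕ) :
    (x + 2 ^ n).testBit k = (x.testBit k || decide (k = n)) := by
  rw [add_comm]
  rcases lt_trichotomy k n with h | rfl | h
  · rw [Nat.testBit_two_pow_add_gt h]
    simp [h.ne]
  · rw [Nat.testBit_two_pow_add_eq, Nat.testBit_lt_two_pow hx]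
    simp
  · have h1 : 2 ^ n + x < 2 ^ k :=
      lt_of_lt_of_le (show 2 ^ n + x < 2 ^ (n + 1) by rw [pow_succ]; omega)
        (Nat.pow_le_pow_right (by norm_num) h)
    rw [Nat.testBit_lt_two_pow h1, Nat.testBit_lt_two_pow (hx.trans (Nat.pow_lt_pow_right (by norm_num) h))]
    simp [h.ne']

theorem mem_allV : ∀ (n : ℕ) (f : ℕ → ZMod 3),
    ∃ v ∈ allV n, v.1 < 2 ^ n ∧ v.2 < 2 ^ n ∧ Ok v ∧ ∀ k, k < n → ln v k = f k
  | 0, f => ⟨(0, 0), List.mem_singleton.2 rfl, by norm_num, by norm_num, rfl, fun k hk => absurd hk (by omega)⟩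
  | n + 1, f => by
    obtain ⟨v, hv, h1, h2, hok, hln⟩ := mem_allV n f
    have hb1 := Nat.testBit_lt_two_pow h1
    have hb2 := Nat.testBit_lt_two_pow h2
    have p2 : 2 ^ (n + 1) = 2 ^ n + 2 ^ n := by rw [pow_succ]; omega
    have hm : ∀ w ∈ [v, (v.1 + 2 ^ n, v.2), (v.1, v.2 + 2 ^ n)], w ∈ allV (n + 1) := fun w hw =>
      List.mem_flatMap.2 ⟨v, hv, hw⟩
    have hcases : f n = 0 ∨ f n = 1 ∨ f n = 2 := by generalize f n = x; revert x; decide
    rcases hcases with h0 | h0 | h0
    · refine ⟨v, hm _ (by simp), by omega, by omega, hok, fun k hk => ?_⟩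
      rcases eq_or_lt_of_le (Nat.lt_succ_iff.1 hk) with rfl | hk'
      · simp [ln, hb1, hb2, lane, h0]
      · exact hln k hk'
    · refine ⟨(v.1 + 2 ^ n, v.2), hm _ (by simp), by simp only; omega, by simp only; omega,
        ok_iff.2 fun k => ?_, fun k hk => ?_⟩
      · simp only [testBit_add_pow h1]
        by_cases e : k = n
        · subst e; simp [hb2]
        · simp [e, ok_iff.1 hok k]
      · simp only [ln, testBit_add_pow h1]
        rcases eq_or_lt_of_le (Nat.lt_succ_iff.1 hk) with rfl | hk'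
        · simp [hb2, lane, h0]
        · simp only [hk'.ne, decide_false, Bool.or_false]
          exact hln k hk'
    · refine ⟨(v.1, v.2 + 2 ^ n), hm _ (by simp), by simp only; omega, by simp only; omega,
        ok_iff.2 fun k => ?_, fun k hk => ?_⟩
      · simp only [testBit_add_pow h2]
        by_cases e : k = n
        · subst e; simp [hb1]
        · simp [e, ok_iff.1 hok k]
      · simp only [ln, testBit_add_pow h2]
        rcases eq_or_lt_of_le (Nat.lt_succ_iff.1 hk) with rfl | hk'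
        · simp [hb1, lane, h0]
        · simp only [hk'.ne, decide_false, Bool.or_false]
          exact hln k hk'

theorem exists_dec (x : Idx → ZMod 3) : ∃ v ∈ allV 7, Ok v ∧ dec v = x := by
  obtain ⟨v, hv, -, -, hok, hln⟩ := mem_allV 7 (fun k => if h : ∃ i, pos i = k then x h.choose else 0)
  refine ⟨v, hv, hok, funext fun i => ?_⟩
  have he : ∃ i', pos i' = pos i := ⟨i, rfl⟩
  show ln v (pos i) = x i
  rw [hln _ (pos_lt i)]
  simp only [dif_pos he]
  exact congrArg x (pos_injective he.choose_spec)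

/-- Integer lane. -/
def lnN (v : Vc) (k : ℕ) : ℕ := bif v.1.testBit k then 1 else bif v.2.testBit k then 2 else 0

/-- The quadratic form on a packed vector. -/
def qN (v : Vc) : ℕ :=
  (lnN v 0 * lnN v 0 + lnN v 1 * lnN v 4 + lnN v 2 * lnN v 5 + lnN v 3 * lnN v 6) % 3

theorem lnN_cast {v : Vc} (hv : Ok v) (k : ℕ) : (lnN v k : ZMod 3) = ln v k := by
  have h := ok_iff.1 hv k
  simp only [lnN, ln]
  cases h1 : v.1.testBit k <;> cases h2 : v.2.testBit k <;> simp_all [lane]

/-- The form. -/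
abbrev Qf : (Idx → ZMod 3) → ZMod 3 := Cfsg.quadFormOdd 3 (ZMod 3)

theorem qN_cast {v : Vc} (hv : Ok v) : (qN v : ZMod 3) = Qf (dec v) := by
  simp only [qN, ZMod.natCast_mod, Nat.cast_add, Nat.cast_mul, lnN_cast hv, Qf, Cfsg.quadFormOdd,
    Fin.sum_univ_three, dec, pos]
  simp
  ring

end Cfsg.Agent.Lib.OmegaSeven
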