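import Cfsg.Agent.Lib.OmegaSeven.Check

/-!
Invariants of the representatives.
-/

set_option autoImplicit false
set_option maxRecDepth 100000
set_option maxHeartbeats 0

namespace Cfsg.Agent.Lib.OmegaSeven

/-- A zero test. -/
def isZ (z : Vc) : Bool := z.1 % 128 == 0 && z.2 % 128 == 0

/-- Some value of the form on the image of `x - 1`. -/
def bN (q : ℕ) (w : List Cols) : Bool := (allV 7).any fun v => qN (vadd (apW w v) (vneg v)) == q

/-- Some value of the form on the fixed space. -/
def bF (q : ℕ) (w : List Cols) : Bool :=
  (allV 7).any fun v => isZ (vadd (apW w v) (vneg v)) && qN v == q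

/-- The signature. -/
def sig (w : List Cols) : List Bool := [bN 1 w, bN 2 w, bF 1 w, bF 2 w]

/-- Code of a representative. -/
def repC (i : ℕ) : ℕ := repCodes.getD i 0

/-- The expected signatures. -/
def sigTab : List (List Bool) :=
  [[true, false, false, false], [true, false, false, false], [true, true, false, true],
   [false, false, true, true], [false, true, true, true], [true, false, true, true],
   [true, true, true, false]]

theorem rep_check : ((List.range 7).all fun i => decide (repC i < 19683) &&
    GoodW (wd (repC i)) && eqW (wd (repC i) ++ (wd (repC i) ++ wd (repC i))) [] &&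
    ((List.range 7).any fun k => neW (wd (repC i)) [] k) &&
    sig (wd (repC i)) == sigTab.getD i [] &&
    sig (wd (repC i) ++ wd (repC i)) == sigTab.getD i []) = true := by decide +kernel

theorem sigTab_inj : ∀ i j : Fin 7, i ≠ j → sigTab.getD i [] = sigTab.getD j [] →
    (i = 0 ∧ j = 1) ∨ (i = 1 ∧ j = 0) := by decide

end Cfsg.Agent.Lib.OmegaSeven
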