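import Cfsg.Agent.Lib.OmegaSeven.Check

/-!
Kernel checks of the certificates.
-/

set_option autoImplicit false
set_option maxRecDepth 100000
set_option maxHeartbeats 0

namespace Cfsg.Agent.Lib.OmegaSeven

theorem okBlk_0 : okBlk 0 = true := by decide +kernel

theorem okBlk_1 : okBlk 1 = true := by decide +kernel

theorem okBlk_2 : okBlk 2 = true := by decide +kernel

theorem okBlk_3 : okBlk 3 = true := by decide +kernel

theorem okBlk_4 : okBlk 4 = true := by decide +kernel

theorem okBlk_5 : okBlk 5 = true := by decide +kernel

theorem okBlk_6 : okBlk 6 = true := by decide +kernel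

end Cfsg.Agent.Lib.OmegaSeven
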