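import Cfsg.Agent.Lib.OmegaSeven.Check

/-!
Kernel checks of the certificates.
-/

set_option autoImplicit false
set_option maxRecDepth 100000
set_option maxHeartbeats 0

namespace Cfsg.Agent.Lib.OmegaSeven

theorem okBlk_7 : okBlk 7 = true := by decide +kernel

theorem okBlk_8 : okBlk 8 = true := by decide +kernel

theorem okBlk_9 : okBlk 9 = true := by decide +kernel

theorem okBlk_10 : okBlk 10 = true := by decide +kernel

theorem okBlk_11 : okBlk 11 = true := by decide +kernel

theorem okBlk_12 : okBlk 12 = true := by decide +kernel

theorem okBlk_13 : okBlk 13 = true := by decide +kernel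

end Cfsg.Agent.Lib.OmegaSeven
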