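import Cfsg.Agent.Lib.OmegaSeven.Check

/-!
Kernel checks of the certificates.
-/

set_option autoImplicit false
set_option maxRecDepth 100000
set_option maxHeartbeats 0

namespace Cfsg.Agent.Lib.OmegaSeven

theorem okBlk_14 : okBlk 14 = true := by decide +kernel

theorem okBlk_15 : okBlk 15 = true := by decide +kernel

theorem okBlk_16 : okBlk 16 = true := by decide +kernel

theorem okBlk_17 : okBlk 17 = true := by decide +kernel

theorem okBlk_18 : okBlk 18 = true := by decide +kernel

theorem okBlk_19 : okBlk 19 = true := by decide +kernel

theorem okBlk_20 : okBlk 20 = true := by decide +kernel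

end Cfsg.Agent.Lib.OmegaSeven
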