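import Cfsg.Agent.Lib.OmegaSeven.Check

/-!
Kernel checks of the certificates.
-/

set_option autoImplicit false
set_option maxRecDepth 100000
set_option maxHeartbeats 0

namespace Cfsg.Agent.Lib.OmegaSeven

theorem okBlk_21 : okBlk 21 = true := by decide +kernel

theorem okBlk_22 : okBlk 22 = true := by decide +kernel

theorem okBlk_23 : okBlk 23 = true := by decide +kernel

theorem okBlk_24 : okBlk 24 = true := by decide +kernel

theorem okBlk_25 : okBlk 25 = true := by decide +kernel

theorem okBlk_26 : okBlk 26 = true := by decide +kernel

end Cfsg.Agent.Lib.OmegaSeven
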