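import Cfsg.Agent.Lib.OmegaSeven.Group
import Cfsg.Agent.Lib.OmegaSeven.RepChecks
import Cfsg.Agent.Lib.OmegaSeven.Run0
import Cfsg.Agent.Lib.OmegaSeven.Run1
import Cfsg.Agent.Lib.OmegaSeven.Run2
import Cfsg.Agent.Lib.OmegaSeven.Run3

/-!
Every element of order 3 of the Sylow subgroup reaches a representative.
-/

set_option autoImplicit false
set_option maxRecDepth 100000

namespace Cfsg.Agent.Lib.OmegaSeven

open Matrix Cfsg.Agent.Lib.Classical Cfsg.Agent.Lib.Classical.QuadOmega

/-- The element of a code. -/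
noncomputable def el (c : ℕ) : OmG := uS 9 c

theorem wMat_wd_el {c : ℕ} (hc : c < 19683) : wMat (wd c) = toM (el c) := wMat_wd hc

theorem ent_ok {c : ℕ} (hc : c < 19683) : okEnt c (ent c) = true := by
  have h : ∀ b, b < 27 → okBlk b = true := by
    intro b hb
    interval_cases b
    exacts [okBlk_0, okBlk_1, okBlk_2, okBlk_3, okBlk_4, okBlk_5, okBlk_6, okBlk_7, okBlk_8, okBlk_9,
      okBlk_10, okBlk_11, okBlk_12, okBlk_13, okBlk_14, okBlk_15, okBlk_16, okBlk_17, okBlk_18,
      okBlk_19, okBlk_20, okBlk_21, okBlk_22, okBlk_23, okBlk_24, okBlk_25, okBlk_26]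
  have := List.all_eq_true.1 (h (c / 729) (by omega)) (c % 729) (List.mem_range.2 (Nat.mod_lt _ (by norm_num)))
  rwa [Nat.div_add_mod] at this

theorem wMat_append (a b : List Cols) : wMat (a ++ b) = wMat a * wMat b := by
  simp [wMat]

theorem kind_ne_zero {c : ℕ} (hc : c < 19683) (h0 : c ≠ 0) (h3 : el c ^ 3 = 1) :
    eKind (ent c) ≠ 0 := by
  intro hk
  have h := ent_ok hc
  rw [okEnt, hk] at h
  simp only [beq_self_eq_true, cond_true, Bool.or_eq_true, beq_iff_eq] at h
  rcases h with h | h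
  · exact h0 h
  · refine neW_spec h ?_
    rw [wMat_append, wMat_append, wMat_wd_el hc, ← map_mul, ← map_mul,
      show el c * (el c * el c) = el c ^ 3 by rw [pow_succ, pow_two, mul_assoc], h3, map_one]
    simp [wMat]

/-- The representatives. -/
noncomputable def rep (i : Fin 7) : OmG := el (repC i)

theorem rep_data (i : Fin 7) : repC i < 19683 ∧ rep i ^ 3 = 1 ∧ rep i ≠ 1 := by
  have h := List.all_eq_true.1 rep_check i (List.mem_range.2 i.2)
  simp only [Bool.and_eq_true, decide_eq_true_eq] at h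
  obtain ⟨⟨⟨⟨⟨hc, -⟩, h3⟩, hne⟩, -⟩, -⟩ := h
  refine ⟨hc, toM_injective ?_, fun e => ?_⟩
  · have := eqW_spec h3
    rw [wMat_append, wMat_append, wMat_wd_el hc] at this
    rw [map_pow, map_one, pow_succ, pow_two, mul_assoc]
    simpa [wMat] using! this
  · obtain ⟨k, -, hk⟩ := List.any_eq_true.1 hne
    refine neW_spec hk ?_
    rw [wMat_wd_el hc, show el (repC i) = rep i from rfl, e, map_one]
    simp [wMat]

/-- The element of a conjugating word. -/
noncomputable def gwE (j : ℕ) : OmG := if j < 18 then ge j else ge (j - 18) * ge (j - 18)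

theorem wMat_gw {j : ℕ} (hj : j < 36) : wMat (gw j) = toM (gwE j) := by
  by_cases h : j < 18
  · simp [gw, gwE, h, wMat, toM_ge h]
  · simp [gw, gwE, h, wMat, toM_ge (show j - 18 < 18 by omega)]

/-- Conjugate into a representative subgroup. -/
def Hit (x : OmG) : Prop := ∃ (i : Fin 7) (g : OmG) (e : ℕ), (e = 1 ∨ e = 2) ∧ g * x * g⁻¹ = rep i ^ e

theorem hit_step {c e : ℕ} (hc : c < 19683) (h : okEnt c e = true) (hk : eKind e ≠ 0)
    (h3 : el c ^ 3 = 1)
    (ih : parOk e = true → el (ePar e) ^ 3 = 1 → Hit (el (ePar e))) : Hit (el c) := by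
  unfold okEnt at h
  rw [beq_eq_false_iff_ne.2 hk, cond_false] at h
  by_cases h1 : eKind e = 1
  · rw [h1, beq_self_eq_true, cond_true, Bool.and_eq_true, decide_eq_true_eq, beq_iff_eq] at h
    refine ⟨⟨_, h.1⟩, 1, 1, Or.inl rfl, ?_⟩
    rw [one_mul, inv_one, mul_one, pow_one]
    show el c = el (repC (eIdx e))
    exact congrArg el h.2.symm
  rw [beq_eq_false_iff_ne.2 h1, cond_false] at h
  by_cases h2 : eKind e = 2
  · rw [h2, beq_self_eq_true, cond_true, Bool.and_eq_true, Bool.and_eq_true, decide_eq_true_eq] at h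
    obtain ⟨⟨hj, hpar⟩, heq⟩ := h
    have hp : ePar e < 19683 := by
      unfold parOk at hpar
      rw [Bool.and_eq_true, Bool.and_eq_true, decide_eq_true_eq] at hpar
      exact hpar.1.1
    have e1 := eqW_spec heq
    rw [wMat_append, wMat_append, wMat_wd_el hc, wMat_wd_el hp, wMat_gw hj, ← map_mul, ← map_mul] at e1
    have he : el (ePar e) = gwE (eIdx e) * el c * (gwE (eIdx e))⁻¹ :=
      eq_mul_inv_of_mul_eq (toM_injective e1).symm
    obtain ⟨i, g, k, hk2, hg⟩ := ih hpar (by rw [he, conj_pow, h3, mul_one, mul_inv_cancel])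
    refine ⟨i, g * gwE (eIdx e), k, hk2, ?_⟩
    rw [← hg, he]
    group
  · rw [beq_eq_false_iff_ne.2 h2, cond_false, Bool.and_eq_true] at h
    obtain ⟨hpar, heq⟩ := h
    have hp : ePar e < 19683 := by
      unfold parOk at hpar
      rw [Bool.and_eq_true, Bool.and_eq_true, decide_eq_true_eq] at hpar
      exact hpar.1.1
    have e1 := eqW_spec heq
    rw [wMat_append, wMat_wd_el hc, wMat_wd_el hp, ← map_mul] at e1
    have he : el (ePar e) = el c * el c := (toM_injective e1).symm
    obtain ⟨i, g, k, hk2, hg⟩ := ih hpar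
      (by rw [he, ← pow_two, ← pow_mul, mul_comm, pow_mul, h3, one_pow])
    have hsq : g * el c * g⁻¹ = (rep i ^ k) ^ 2 := by
      rw [← hg, he, conj_pow, show (el c * el c) ^ 2 = el c ^ 3 * el c by
        simp only [pow_succ, pow_zero, one_mul, mul_assoc], h3, one_mul]
    rcases hk2 with rfl | rfl
    · exact ⟨i, g, 2, Or.inr rfl, by rw [hsq, pow_one]⟩
    · exact ⟨i, g, 1, Or.inl rfl, by rw [hsq, ← pow_mul, show 2 * 2 = 3 + 1 from rfl, pow_add,
        (rep_data i).2.1, one_mul]⟩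

theorem hit_of_kind (d : ℕ) : ∀ c, c < 19683 → eDep (ent c) < d → eKind (ent c) ≠ 0 →
    el c ^ 3 = 1 → Hit (el c) := by
  induction d with
  | zero => exact fun c _ h => absurd h (Nat.not_lt_zero _)
  | succ d ih =>
    intro c hc hd hk h3
    refine hit_step hc (ent_ok hc) hk h3 fun hpar hp3 => ?_
    unfold parOk at hpar
    rw [Bool.and_eq_true, Bool.and_eq_true, decide_eq_true_eq, decide_eq_true_eq, bne_iff_ne] at hpar
    exact ih _ hpar.1.1 (lt_of_lt_of_le hpar.2 (Nat.lt_succ_iff.1 hd)) hpar.1.2 hp3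

end Cfsg.Agent.Lib.OmegaSeven
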