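import Cfsg.Agent.Lib.OmegaSeven.Spin
import Cfsg.Agent.Lib.OmegaSeven.RepChecks

/-!
Kernel checks for the center and the spin lifts.
-/

set_option autoImplicit false
set_option maxRecDepth 100000

namespace Cfsg.Agent.Lib.OmegaSeven

open Matrix Cfsg.Agent.Lib.Classical Cfsg.Agent.Lib.Classical.QuadOmega

theorem center_check :
    ((toMat (gen 0) - 1) * (toMat (gen 0) - 1) = Matrix.single (.inr (.inl 2) : Idx) (.inr (.inr 2) : Idx) 1) ∧
    ((toMat (gen 1) - 1) * (toMat (gen 6) - 1) = Matrix.single (.inr (.inl 0) : Idx) (.inr (.inr 2) : Idx) 1) ∧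
    ((toMat (gen 1) - 1) * (toMat (gen 12) - 1) = Matrix.single (.inr (.inr 1) : Idx) (.inr (.inr 2) : Idx) 2) ∧
    ((toMat (gen 3) - 1) * (toMat (gen 0) - 1) = Matrix.single (.inr (.inl 1) : Idx) (.inr (.inr 2) : Idx) 1) ∧
    ((toMat (gen 9) - 1) * (toMat (gen 0) - 1) = Matrix.single (.inr (.inr 0) : Idx) (.inr (.inr 2) : Idx) 1) ∧
    ((toMat (gen 2) - 1) * ((toMat (gen 1) - 1) * (toMat (gen 12) - 1)) =
      Matrix.single (.inr (.inr 2) : Idx) (.inr (.inr 2) : Idx) 2) ∧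
    ((toMat (gen 3) - 1) * ((toMat (gen 14) - 1) * ((toMat (gen 3) - 1) * (toMat (gen 15) - 1))) =
      Matrix.single (.inl () : Idx) (.inr (.inr 2) : Idx) 1) := by
  decide +kernel

/-- Lift of the first two representatives. -/
def liftR : Fin 2 → Mat8 := ![liftRep0, liftRep1]

/-- Their scalars. -/
def scalR : Fin 2 → ZMod 3 := ![2, 1]

theorem lift_check : ∀ i : Fin 2,
    (liftR i)ᵀ * beta * liftR i = beta ∧ liftR i * (liftR i * liftR i) = 1 ∧
    (liftR i - 1)ᵀ * beta * (liftR i - 1) = scalR i • Matrix.single (0 : Fin 8) (0 : Fin 8) (1 : ZMod 3) ∧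
    (liftR i * liftR i - 1)ᵀ * beta * (liftR i * liftR i - 1) =
      scalR i • Matrix.single (0 : Fin 8) (0 : Fin 8) (1 : ZMod 3) ∧
    ∀ j : Idx, gam (dec (apW (wd (repC i)) (unitV (pos j)))) * liftR i = liftR i * cl j := by
  decide +kernel

end Cfsg.Agent.Lib.OmegaSeven
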