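import Cfsg.Agent.Lib.OmegaSeven.Cover
import Cfsg.Agent.Lib.OmegaSeven.SpinChecks

/-!
The centre, and the representatives are not conjugate.
-/

set_option autoImplicit false
set_option maxRecDepth 100000

namespace Cfsg.Agent.Lib.OmegaSeven

open Matrix Cfsg.Agent.Lib.Classical Cfsg.Agent.Lib.Classical.QuadOmega

theorem det_omega (g : OmG) : (toM g).det = 1 := by
  let f : GO →* (ZMod 3)ˣ := Matrix.GeneralLinearGroup.det.comp GO.subtype
  have h : OmG ≤ f.ker := by
    show commutator GO ≤ f.ker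
    rw [commutator_eq_closure, Subgroup.closure_le]
    rintro _ ⟨a, b, rfl⟩
    rw [SetLike.mem_coe, MonoidHom.mem_ker, map_commutatorElement, commutatorElement_eq_one_iff_commute]
    exact Commute.all _ _
  have := congrArg Units.val (MonoidHom.mem_ker.1 (h g.2))
  simpa [f, toM] using! this

theorem center_eq_bot : Subgroup.center OmG = ⊥ := by
  rw [Subgroup.eq_bot_iff_forall]
  intro z hz
  obtain ⟨Z, hZ⟩ : ∃ Z, Z = toM z := ⟨_, rfl⟩
  have hn : ∀ k, k < 18 → Commute Z (toMat (gen k) - 1) := fun k hk => by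
    refine Commute.sub_right ?_ (Commute.one_right _)
    have := congrArg toM (Subgroup.mem_center_iff.1 hz (ge k))
    rw [map_mul, map_mul, toM_ge hk, ← hZ] at this
    exact this.symm
  obtain ⟨c1, c2, c3, c4, c5, c6, c7⟩ := center_check
  let t : Idx := .inr (.inr 2)
  have hs : ∀ s : Idx, ∃ a : ZMod 3, a ≠ 0 ∧ Commute Z (Matrix.single s t a) := by
    have n := fun k (hk : k < 18) => hn k hk
    rintro (u | i | i)
    · exact ⟨1, by decide, c7 ▸ (n 3 (by norm_num)).mul_right ((n 14 (by norm_num)).mul_right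
        ((n 3 (by norm_num)).mul_right (n 15 (by norm_num))))⟩
    · fin_cases i
      · exact ⟨1, by decide, c2 ▸ (n 1 (by norm_num)).mul_right (n 6 (by norm_num))⟩
      · exact ⟨1, by decide, c4 ▸ (n 3 (by norm_num)).mul_right (n 0 (by norm_num))⟩
      · exact ⟨1, by decide, c1 ▸ (n 0 (by norm_num)).mul_right (n 0 (by norm_num))⟩
    · fin_cases i
      · exact ⟨1, by decide, c5 ▸ (n 9 (by norm_num)).mul_right (n 0 (by norm_num))⟩
      · exact ⟨2, by decide, c3 ▸ (n 1 (by norm_num)).mul_right (n 12 (by norm_num))⟩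
      · exact ⟨2, by decide, c6 ▸ (n 2 (by norm_num)).mul_right ((n 1 (by norm_num)).mul_right (n 12 (by norm_num)))⟩
  have hscal : Z = Z t t • (1 : Matrix Idx Idx (ZMod 3)) := by
    ext r s
    obtain ⟨a, ha, hc⟩ := hs s
    have := congrFun (congrFun hc.eq r) t
    simp [Matrix.mul_apply, Matrix.single_apply] at this
    rw [Matrix.smul_apply, Matrix.one_apply, smul_eq_mul]
    by_cases hrs : r = s
    · subst hrs
      rw [if_pos rfl, mul_one]
      simp [t] at this ⊢
      exact mul_left_cancel₀ ha ((mul_comm a _).trans this)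
    · rw [if_neg hrs, mul_zero]
      simp [Ne.symm hrs] at this
      exact this.resolve_right ha
  have hd := det_omega z
  rw [← hZ, hscal, Matrix.det_smul, Matrix.det_one, mul_one] at hd
  apply toM_injective
  rw [← hZ, map_one, hscal]
  have ht : Z t t = 1 := by
    generalize Z t t = x at hd
    rw [show Fintype.card Idx = 7 from rfl] at hd
    revert x
    decide
  rw [ht, one_smul]

/-- Some value of the form on the image of `M - 1`. -/
def PN (q : ℕ) (M : Matrix Idx Idx (ZMod 3)) : Prop := ∃ v, Qf (M *ᵥ v - v) = (q : ZMod 3)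

/-- Some value of the form on the fixed space. -/
def PF (q : ℕ) (M : Matrix Idx Idx (ZMod 3)) : Prop := ∃ v, M *ᵥ v = v ∧ Qf v = (q : ZMod 3)

theorem dec_nvec {w : List Cols} (hw : GoodW w = true) {v : Vc} (hv : Ok v) :
    Ok (vadd (apW w v) (vneg v)) ∧ dec (vadd (apW w v) (vneg v)) = wMat w *ᵥ dec v - dec v := by
  obtain ⟨h1, h2⟩ := apW_spec hw hv
  obtain ⟨h3, h4⟩ := vadd_facts h1 (ok_vneg hv)
  refine ⟨h3, funext fun i => ?_⟩
  rw [← h2, Pi.sub_apply, sub_eq_add_neg]
  show ln _ _ = _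
  rw [h4, ln_vneg]
  rfl

theorem qN_iff {v : Vc} (hv : Ok v) {q : ℕ} (hq : q < 3) : qN v = q ↔ Qf (dec v) = (q : ZMod 3) := by
  rw [← qN_cast hv]
  refine ⟨fun h => by rw [h], fun h => ?_⟩
  have := congrArg ZMod.val h
  rwa [ZMod.val_natCast, ZMod.val_natCast, Nat.mod_eq_of_lt (show qN v < 3 from Nat.mod_lt _ (by norm_num)),
    Nat.mod_eq_of_lt hq] at this

theorem isZ_iff {z : Vc} (hz : Ok z) : isZ z = true ↔ dec z = 0 := by
  simp only [isZ, Bool.and_eq_true, beq_iff_eq]
  constructor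
  · rintro ⟨h1, h2⟩
    funext i
    have e1 : z.1.testBit (pos i) = false := by
      have := congrArg (fun n => n.testBit (pos i)) h1
      rw [show (128 : ℕ) = 2 ^ 7 from rfl, Nat.testBit_mod_two_pow] at this
      simpa [pos_lt i] using this
    have e2 : z.2.testBit (pos i) = false := by
      have := congrArg (fun n => n.testBit (pos i)) h2
      rw [show (128 : ℕ) = 2 ^ 7 from rfl, Nat.testBit_mod_two_pow] at this
      simpa [pos_lt i] using this
    simp [dec, ln, e1, e2, lane]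
  · intro h
    have := dec_inj hz (v := (0, 0)) (show (0 : ℕ) &&& 0 = 0 from rfl)
      (h.trans (funext fun i => (ln_zero _).symm))
    simpa using this

theorem mem_allV_ok : ∀ (n : ℕ) (v : Vc), v ∈ allV n → Ok v ∧ v.1 < 2 ^ n ∧ v.2 < 2 ^ n
  | 0, v, hv => by
    rw [allV, List.mem_singleton] at hv
    subst hv
    exact ⟨show (0 : ℕ) &&& 0 = 0 from rfl, by norm_num, by norm_num⟩
  | n + 1, v, hv => by
    obtain ⟨u, hu, hv⟩ := List.mem_flatMap.1 hv
    obtain ⟨hok, h1, h2⟩ := mem_allV_ok n u hu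
    have hb1 := Nat.testBit_lt_two_pow h1
    have hb2 := Nat.testBit_lt_two_pow h2
    have p2 : 2 ^ (n + 1) = 2 ^ n + 2 ^ n := by rw [pow_succ]; omega
    simp only [List.mem_cons, List.not_mem_nil, or_false] at hv
    rcases hv with rfl | rfl | rfl
    · exact ⟨hok, by omega, by omega⟩
    · refine ⟨ok_iff.2 fun k => ?_, by simp only; omega, by simp only; omega⟩
      simp only [testBit_add_pow h1]
      by_cases e : k = n
      · subst e; simp [hb2]
      · simp [e, ok_iff.1 hok k]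
    · refine ⟨ok_iff.2 fun k => ?_, by simp only; omega, by simp only; omega⟩
      simp only [testBit_add_pow h2]
      by_cases e : k = n
      · subst e; simp [hb1]
      · simp [e, ok_iff.1 hok k]

theorem bN_iff {w : List Cols} (hw : GoodW w = true) {q : ℕ} (hq : q < 3) :
    bN q w = true ↔ PN q (wMat w) := by
  simp only [bN, List.any_eq_true, beq_iff_eq, PN]
  constructor
  · rintro ⟨v, hv, h⟩
    have hok : Ok v := (mem_allV_ok 7 v hv).1
    obtain ⟨h1, h2⟩ := dec_nvec hw hok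
    exact ⟨dec v, by rw [← h2]; exact (qN_iff h1 hq).1 h⟩
  · rintro ⟨u, hu⟩
    obtain ⟨v, hv, hok, rfl⟩ := exists_dec u
    obtain ⟨h1, h2⟩ := dec_nvec hw hok
    exact ⟨v, hv, (qN_iff h1 hq).2 (by rw [h2]; exact hu)⟩

theorem bF_iff {w : List Cols} (hw : GoodW w = true) {q : ℕ} (hq : q < 3) :
    bF q w = true ↔ PF q (wMat w) := by
  simp only [bF, List.any_eq_true, Bool.and_eq_true, beq_iff_eq, PF]
  constructor
  · rintro ⟨v, hv, hz, h⟩
    have hok : Ok v := (mem_allV_ok 7 v hv).1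
    obtain ⟨h1, h2⟩ := dec_nvec hw hok
    exact ⟨dec v, sub_eq_zero.1 (h2 ▸ (isZ_iff h1).1 hz), (qN_iff hok hq).1 h⟩
  · rintro ⟨u, hu, hu'⟩
    obtain ⟨v, hv, hok, rfl⟩ := exists_dec u
    obtain ⟨h1, h2⟩ := dec_nvec hw hok
    exact ⟨v, hv, (isZ_iff h1).2 (by rw [h2, hu, sub_self]), (qN_iff hok hq).2 hu'⟩

theorem PN_conj (g x : OmG) (q : ℕ) : PN q (toM (g * x * g⁻¹)) ↔ PN q (toM x) := by
  have key : ∀ g x : OmG, PN q (toM x) → PN q (toM (g * x * g⁻¹)) := by
    rintro g x ⟨v, hv⟩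
    refine ⟨toM g *ᵥ v, ?_⟩
    rw [Matrix.mulVec_mulVec, ← map_mul, inv_mul_cancel_right, map_mul, ← Matrix.mulVec_mulVec,
      ← Matrix.mulVec_sub, toM_isometry, hv]
  refine ⟨fun h => ?_, key g x⟩
  have := key g⁻¹ _ h
  simpa [mul_assoc] using this

theorem PF_conj (g x : OmG) (q : ℕ) : PF q (toM (g * x * g⁻¹)) ↔ PF q (toM x) := by
  have key : ∀ g x : OmG, PF q (toM x) → PF q (toM (g * x * g⁻¹)) := by
    rintro g x ⟨v, hv, hv'⟩
    refine ⟨toM g *ᵥ v, ?_, by rw [toM_isometry, hv']⟩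
    rw [Matrix.mulVec_mulVec, ← map_mul, inv_mul_cancel_right, map_mul, ← Matrix.mulVec_mulVec, hv]
  refine ⟨fun h => ?_, key g x⟩
  have := key g⁻¹ _ h
  simpa [mul_assoc] using this

theorem sig_eq {a b : List Cols} (ha : GoodW a = true) (hb : GoodW b = true) {g x : OmG}
    (hxa : wMat a = toM x) (hxb : wMat b = toM (g * x * g⁻¹)) : sig a = sig b := by
  have hN : ∀ q, q < 3 → bN q a = bN q b := fun q hq => by
    rw [Bool.eq_iff_iff, bN_iff ha hq, bN_iff hb hq, hxa, hxb, PN_conj]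
  have hF : ∀ q, q < 3 → bF q a = bF q b := fun q hq => by
    rw [Bool.eq_iff_iff, bF_iff ha hq, bF_iff hb hq, hxa, hxb, PF_conj]
  simp [sig, hN 1 (by norm_num), hN 2 (by norm_num), hF 1 (by norm_num), hF 2 (by norm_num)]

theorem lift_rep (i : Fin 2) :
    IsLift (toM (rep (Fin.castLE (by norm_num) i))) (liftR i) 1 1 := by
  obtain ⟨h1, -, -, -, h5⟩ := lift_check i
  have hc := (rep_data (Fin.castLE (by norm_num) i)).1
  have hg : GoodW (wd (repC i)) = true := by
    have h := List.all_eq_true.1 rep_check i (List.mem_range.2 (by omega))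
    simp only [Bool.and_eq_true] at h
    exact h.1.1.1.1.2
  refine ⟨one_mul _, one_mul _, by rw [one_smul, h1], fun v => ?_⟩
  rw [one_smul, rep, ← wMat_wd_el hc]
  have e : ∀ j, gam (wMat (wd (repC i)) *ᵥ Pi.single j 1) * liftR i = liftR i * gam (Pi.single j 1) := fun j => by
    rw [← dec_unitV j, ← (apW_spec hg (ok_unitV _)).2, h5, dec_unitV, gam_single]
  conv_lhs => rw [pi_eq_sum_univ' v]
  conv_rhs => rw [pi_eq_sum_univ' v]
  have hlin : ∀ (s : Finset Idx) (f : Idx → Idx → ZMod 3), gam (∑ j ∈ s, f j) = ∑ j ∈ s, gam (f j) := by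
    intro s f
    induction s using Finset.induction_on with
    | empty => simp [gam]
    | insert a s ha ih => rw [Finset.sum_insert ha, Finset.sum_insert ha, gam_add, ih]
  simp only [Fin.val_castLE, Matrix.mulVec_sum, hlin, Finset.sum_mul, Finset.mul_sum, Matrix.mulVec_smul,
    gam_smul, Matrix.smul_mul, Matrix.mul_smul, e]

theorem rep_unique (i j : Fin 7) (g : OmG) {e : ℕ} (he : e = 1 ∨ e = 2)
    (h : g * rep i * g⁻¹ = rep j ^ e) : i = j := by
  by_contra hij
  have hi := List.all_eq_true.1 rep_check i (List.mem_range.2 i.2)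
  have hj := List.all_eq_true.1 rep_check j (List.mem_range.2 j.2)
  simp only [Bool.and_eq_true, decide_eq_true_eq, beq_iff_eq] at hi hj
  obtain ⟨⟨⟨⟨⟨hci, hgi⟩, -⟩, -⟩, hsi⟩, -⟩ := hi
  obtain ⟨⟨⟨⟨⟨hcj, hgj⟩, -⟩, -⟩, hsj⟩, hsj2⟩ := hj
  have hs : sigTab.getD i [] = sigTab.getD j [] := by
    rcases he with rfl | rfl
    · rw [← hsi, ← hsj]
      refine sig_eq hgi hgj (g := g) (wMat_wd_el hci) ?_
      rw [show g * el (repC i) * g⁻¹ = rep j ^ 1 from h, pow_one, wMat_wd_el hcj]
      rfl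
    · rw [← hsi, ← hsj2]
      refine sig_eq hgi (by simp [GoodW] at hgj ⊢; exact hgj) (g := g) (wMat_wd_el hci) ?_
      rw [show g * el (repC i) * g⁻¹ = rep j ^ 2 from h, wMat_append, wMat_wd_el hcj, pow_two, map_mul]
      rfl
  obtain ⟨S, hS⟩ := exists_lift_omega g
  have key : ∀ a b : Fin 2, a ≠ b →
      g * rep (Fin.castLE (by norm_num) a) * g⁻¹ = rep (Fin.castLE (by norm_num) b) ^ e → False := by
    intro a b hab hgab
    obtain ⟨-, a3, ac, -, -⟩ := lift_check a
    obtain ⟨-, b3, bc, bc2, -⟩ := lift_check b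
    have hm := congrArg toM (mul_inv_eq_iff_eq_mul.1 hgab)
    rw [map_mul, map_mul] at hm
    have hno : ¬ ∃ t : ZMod 3, scalR a = scalR b * (t * t) :=
      (by decide : ∀ a b : Fin 2, a ≠ b → ¬ ∃ t : ZMod 3, scalR a = scalR b * (t * t)) a b hab
    rcases he with rfl | rfl
    · rw [pow_one] at hm
      exact hno (rigid (lift_rep a) (lift_rep b) hS a3 b3 hm ac bc)
    · rw [pow_two, map_mul] at hm
      have hl := (lift_rep b).mul (lift_rep b)
      rw [one_mul] at hl
      refine hno (rigid (lift_rep a) hl hS a3 ?_ hm ac bc2)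
      rw [show liftR b * liftR b * (liftR b * liftR b * (liftR b * liftR b)) =
        liftR b * (liftR b * liftR b) * (liftR b * (liftR b * liftR b)) by simp only [Matrix.mul_assoc],
        b3, Matrix.one_mul]
  rcases sigTab_inj i j hij hs with ⟨rfl, rfl⟩ | ⟨rfl, rfl⟩
  · exact key 0 1 (by decide) h
  · exact key 1 0 (by decide) h

end Cfsg.Agent.Lib.OmegaSeven
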