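import Cfsg.Agent.Lib.OmegaSeven.GroupChecks
import Cfsg.Agent.Lib.Classical.QuadOmega.Main
import Cfsg.Agent.Lib.Classical.QuadOmega.Generation

/-!
The root elements inside `Ω₇(3)` and the Sylow 3-subgroup they span.
-/

set_option autoImplicit false
set_option maxRecDepth 100000

namespace Cfsg.Agent.Lib.OmegaSeven

open Matrix Cfsg.Agent.Lib.Classical Cfsg.Agent.Lib.Classical.QuadOmega

/-- The isometry group. -/
abbrev GO : Subgroup (GL Idx (ZMod 3)) := Cfsg.isometryGroup (ZMod 3) Qf

/-- `Ω₇(3)`. -/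
abbrev OmG : Subgroup GO := Cfsg.Omega (ZMod 3) Qf

/-- The form as a quadratic map. -/
noncomputable def Rq : QuadraticForm (ZMod 3) (Idx → ZMod 3) :=
  QuadraticMap.proj (.inl ()) (.inl ()) +
    ∑ i : Fin 3, QuadraticMap.proj (.inr (.inl i)) (.inr (.inr i))

theorem Rq_eq : ⇑Rq = Qf := by
  funext v
  simp [Rq, Qf, Cfsg.quadFormOdd, sq]

theorem nd_Rq : Nd Rq := by
  intro x hx
  have h : ∀ j, Qf (x + Pi.single j 1) - Qf x - Qf (Pi.single j 1) = 0 := fun j => by
    rw [← Rq_eq]; exact hx (Pi.single j 1)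
  funext j
  rcases j with u | i | i
  · have := h (.inl ())
    simp [Qf, Cfsg.quadFormOdd, Fin.sum_univ_three] at this
    generalize x (.inl ()) = a at this ⊢
    show a = 0
    revert a
    decide
  · have := h (.inr (.inr i))
    fin_cases i <;>
    · simp [Qf, Cfsg.quadFormOdd, Fin.sum_univ_three] at this ⊢
      linear_combination this
  · have := h (.inr (.inl i))
    fin_cases i <;>
    · simp [Qf, Cfsg.quadFormOdd, Fin.sum_univ_three] at this ⊢
      linear_combination this

theorem two_ne_zero' : (2 : ZMod 3) ≠ 0 := by decide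

theorem sq_mem_omega (g : GO) : Abelianization.of g ^ 2 = 1 := by
  have hgen := closure_reflection_eq_top (F := ZMod 3) Rq nd_Rq (reg_of_two_ne_zero two_ne_zero')
  have key : ∀ g : Cfsg.isometryGroup (ZMod 3) ⇑Rq, Abelianization.of g ^ 2 = 1 := by
    intro g
    have : g ∈ Subgroup.closure {g : Cfsg.isometryGroup (ZMod 3) ⇑Rq | ∃ v : Idx → ZMod 3, Rq v ≠ 0 ∧
        ((g : GL Idx (ZMod 3)) : Matrix Idx Idx (ZMod 3)) = Cfsg.reflectionMatrix (⇑Rq) v} := by
      rw [hgen]; exact Subgroup.mem_top g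
    induction this using Subgroup.closure_induction with
    | mem x hx =>
      obtain ⟨v, hv, hx⟩ := hx
      have h1 := (coe_eq_reflection_iff Rq hv x).1 hx
      have h2 : x * x = 1 := (matEquiv Rq).injective (by rw [map_mul, map_one, h1, refl_mul_self hv])
      rw [sq, ← map_mul, h2, map_one]
    | one => rw [map_one, one_pow]
    | mul x y _ _ hx hy => rw [map_mul, mul_pow, hx, hy, one_mul]
    | inv x _ hx => rw [map_inv, inv_pow, hx, inv_one]
  revert g
  show ∀ g : Cfsg.isometryGroup (ZMod 3) Qf, Abelianization.of g ^ 2 = 1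
  rw [← Rq_eq]
  exact key

theorem mem_omega_of_cube {g : GO} (h : g * g * g = 1) : g ∈ OmG := by
  have h2 := sq_mem_omega g
  have h3 : Abelianization.of g ^ 2 * Abelianization.of g = 1 := by
    rw [sq, ← map_mul, ← map_mul, h, map_one]
  rw [h2, one_mul] at h3
  exact (QuotientGroup.eq_one_iff g).1 h3

theorem gen_facts {k : ℕ} (hk : k < 18) : Good (gen k) = true ∧
    toMat (gen k) * (toMat (gen k) * toMat (gen k)) = 1 ∧
      ∀ u, Qf (toMat (gen k) *ᵥ u) = Qf u := by
  have h := List.all_eq_true.1 gen_check k (List.mem_range.2 hk)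
  simp only [Bool.and_eq_true, List.all_eq_true, beq_iff_eq] at h
  refine ⟨h.1.1, by simpa [wMat] using eqW_spec h.1.2, fun u => ?_⟩
  obtain ⟨v, hv, hok, rfl⟩ := exists_dec u
  obtain ⟨hok', e⟩ := ap_spec h.1.1 hok
  rw [← e, ← qN_cast hok', ← qN_cast hok, h.2 v hv]

/-- The root element as an invertible matrix. -/
def geU (k : ℕ) (hk : k < 18) : GL Idx (ZMod 3) :=
  ⟨toMat (gen k), toMat (gen k) * toMat (gen k), (gen_facts hk).2.1,
    by rw [mul_assoc]; exact (gen_facts hk).2.1⟩

/-- The root element as an isometry. -/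
def geO (k : ℕ) (hk : k < 18) : GO := ⟨geU k hk, fun u _ => (gen_facts hk).2.2 u⟩

/-- The root element in `Ω`. -/
def ge (k : ℕ) : OmG :=
  if hk : k < 18 then ⟨geO k hk, mem_omega_of_cube (Subtype.ext (Units.ext
    (show toMat (gen k) * toMat (gen k) * toMat (gen k) = 1 by
      rw [mul_assoc]; exact (gen_facts hk).2.1)))⟩ else 1

/-- The matrix of an element. -/
noncomputable def toM : OmG →* Matrix Idx Idx (ZMod 3) :=
  (Units.coeHom _).comp (GO.subtype.comp OmG.subtype)

theorem toM_injective : Function.Injective toM := fun _ _ h =>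
  Subtype.ext (Subtype.ext (Units.ext h))

theorem toM_isometry (g : OmG) (u : Idx → ZMod 3) : Qf (toM g *ᵥ u) = Qf u := g.1.2 u 0

theorem toM_ge {k : ℕ} (hk : k < 18) : toM (ge k) = toMat (gen k) := by
  rw [ge, dif_pos hk]
  rfl

theorem ge_cube (k : ℕ) : ge k ^ 3 = 1 := by
  by_cases hk : k < 18
  · apply toM_injective
    rw [map_pow, map_one, toM_ge hk, pow_succ, pow_two, mul_assoc, (gen_facts hk).2.1]
  · rw [ge, dif_neg hk, one_pow]

/-- Elements of the last `n` root groups. -/
def uS : ℕ → ℕ → OmG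
  | 0, _ => 1
  | n + 1, c => ge (8 - n) ^ (c / 3 ^ n) * uS n (c % 3 ^ n)

theorem toM_uS : ∀ (n c : ℕ), toM (uS n c) = wMat (wS n c)
  | 0, c => by simp [uS, wS, wMat]
  | n + 1, c => by
    rw [uS, wS, map_mul, map_pow, toM_ge (by omega), toM_uS n]
    simp [wMat, List.map_replicate, List.prod_replicate]

theorem wS_eq_hS : ∀ (m : ℕ), m ≤ 5 → ∀ c, c < 81 * 3 ^ m →
    wS (4 + m) c = hS m (c / 81) ++ wS 4 (c % 81)
  | 0, _, c, hc => by
    rw [Nat.mod_eq_of_lt (by simpa using hc)]
    rfl
  | m + 1, hm, c, hc => by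
    show wS (4 + m + 1) c = _
    have e81 : (3 : ℕ) ^ (4 + m) = 81 * 3 ^ m := by rw [pow_add]; norm_num
    have hlt : c % 3 ^ (4 + m) < 81 * 3 ^ m := by
      rw [← e81]; exact Nat.mod_lt _ (by positivity)
    rw [wS, hS, wS_eq_hS m (by omega) _ hlt, e81, ← List.append_assoc, Nat.div_div_eq_div_mul,
      Nat.mod_mul_right_div_self, Nat.mod_mul_right_mod, show 8 - (4 + m) = 4 - m by omega]

theorem wMat_wd {c : ℕ} (hc : c < 19683) : wMat (wd c) = toM (uS 9 c) := by
  have h1 := eqW_spec (List.all_eq_true.1 pre_check (c / 81) (List.mem_range.2 (by omega)))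
  have h2 := eqW_spec (List.all_eq_true.1 suf_check (c % 81) (List.mem_range.2 (by omega)))
  rw [toM_uS, show wS 9 c = hS 5 (c / 81) ++ wS 4 (c % 81) from wS_eq_hS 5 le_rfl c (by norm_num; omega)]
  simp only [wMat, List.map_cons, List.map_nil, List.prod_cons, List.prod_nil, mul_one,
    List.map_append, List.prod_append] at h1 h2 ⊢
  rw [← h1, ← h2]
  simp [wd]

theorem uS_succ_of_lt {n c : ℕ} (hc : c < 3 ^ n) : uS (n + 1) c = uS n c := by
  rw [uS, Nat.div_eq_of_lt hc, pow_zero, one_mul, Nat.mod_eq_of_lt hc]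

theorem uS_of_lt : ∀ {d n c : ℕ}, c < 3 ^ n → uS (n + d) c = uS n c
  | 0, n, c, _ => rfl
  | d + 1, n, c, hc => by
    have h3 : c < 3 ^ (n + d) := hc.trans_le (Nat.pow_le_pow_right (by norm_num) (Nat.le_add_right n d))
    show uS (n + d + 1) c = _
    rw [uS_succ_of_lt h3]
    exact uS_of_lt hc

/-- The subgroup of the last `n` root groups. -/
def Us (n : ℕ) : Subgroup OmG := Subgroup.closure {x | ∃ j, 9 ≤ j + n ∧ j < 9 ∧ ge j = x}

theorem us_facts : ∀ n, n ≤ 9 → (∀ x, x ∈ Us n ↔ ∃ c, c < 3 ^ n ∧ uS n c = x) ∧ Nat.card (Us n) = 3 ^ n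
  | 0, _ => by
    have h : Us 0 = ⊥ := by
      rw [Us, Subgroup.closure_eq_bot_iff]
      rintro x ⟨j, h1, h2, -⟩
      omega
    rw [h]
    refine ⟨fun x => ⟨fun hx => ⟨0, by norm_num, (Subgroup.mem_bot.1 hx).symm⟩, ?_⟩, by simp⟩
    rintro ⟨c, -, rfl⟩
    exact Subgroup.one_mem _
  | n + 1, hn => by
    obtain ⟨ih, ihc⟩ := us_facts n (by omega)
    set k := 8 - n with hk
    have hk9 : k < 9 := by omega
    have hle : Us n ≤ Us (n + 1) := Subgroup.closure_mono fun x ⟨j, h1, h2, h3⟩ => ⟨j, by omega, h2, h3⟩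
    have hsup : Us (n + 1) = Subgroup.zpowers (ge k) ⊔ Us n := by
      refine le_antisymm ?_ (sup_le ?_ hle)
      · rw [Us, Subgroup.closure_le]
        rintro x ⟨j, h1, h2, rfl⟩
        by_cases hj : 9 ≤ j + n
        · exact Subgroup.mem_sup_right (Subgroup.subset_closure ⟨j, hj, h2, rfl⟩)
        · rw [show j = k by omega]
          exact Subgroup.mem_sup_left (Subgroup.mem_zpowers _)
      · rw [Subgroup.zpowers_le]
        exact Subgroup.subset_closure ⟨k, by omega, hk9, rfl⟩
    have hconj : ∀ x ∈ Us n, ge k * x * (ge k)⁻¹ ∈ Us n := by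
      intro x hx
      have : (Us n).map (MulAut.conj (ge k)).toMonoidHom ≤ Us n := by
        rw [Us, MonoidHom.map_closure, Subgroup.closure_le]
        rintro _ ⟨_, ⟨j, h1, h2, rfl⟩, rfl⟩
        have h := List.all_eq_true.1 (List.all_eq_true.1 conj_check k (List.mem_range.2 hk9)) j
          (List.mem_range.2 h2)
        simp only [Bool.or_eq_true, Bool.and_eq_true, decide_eq_true_eq] at h
        rcases h with h | ⟨hlt, heq⟩
        · omega
        · refine (ih _).2 ⟨conjCode k j, by rwa [show n = 8 - k by omega], ?_⟩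
          show _ = ge k * ge j * (ge k)⁻¹
          rw [eq_mul_inv_iff_mul_eq, show n = 8 - k by omega]
          apply toM_injective
          rw [map_mul, map_mul, toM_uS, toM_ge (by omega), toM_ge (by omega)]
          have := eqW_spec heq
          simp only [wMat, List.map_cons, List.map_nil, List.prod_cons, List.prod_nil, mul_one,
            List.map_append, List.prod_append] at this ⊢
          exact this.symm
      exact this ⟨x, hx, rfl⟩
    have hnorm : Subgroup.zpowers (ge k) ≤ Subgroup.normalizer (Us n : Set OmG) := by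
      rw [Subgroup.zpowers_le, Subgroup.mem_normalizer_iff]
      refine fun x => ⟨hconj x, fun hx => ?_⟩
      have h1 := hconj _ (hconj _ hx)
      have h3 := ge_cube k
      rw [pow_succ, pow_two] at h3
      rwa [show ge k * (ge k * (ge k * x * (ge k)⁻¹) * (ge k)⁻¹) * (ge k)⁻¹ =
        (ge k * ge k * ge k) * x * (ge k * ge k * ge k)⁻¹ by group, h3, one_mul, inv_one, mul_one] at h1
    have hgnot : ge k ∉ Us n := by
      intro hg
      obtain ⟨c, hc, e⟩ := (ih _).1 hg
      have h := List.all_eq_true.1 (List.all_eq_true.1 notMem_check k (List.mem_range.2 hk9)) c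
        (List.mem_range.2 (by rwa [show 8 - k = n by omega]))
      obtain ⟨i, -, hi⟩ := List.any_eq_true.1 h
      have hc9 : c < 19683 := hc.trans_le (show 3 ^ n ≤ 3 ^ 9 from Nat.pow_le_pow_right (by norm_num) (by omega))
      refine neW_spec hi ?_
      rw [wMat_wd hc9, show (9 : ℕ) = n + (9 - n) by omega, uS_of_lt hc, e, toM_ge (by omega)]
      simp [wMat]
    have hord : orderOf (ge k) = 3 :=
      orderOf_eq_prime (ge_cube k) (fun e => hgnot (e ▸ Subgroup.one_mem _))
    have hmem : ∀ x, x ∈ Us (n + 1) ↔ ∃ c, c < 3 ^ (n + 1) ∧ uS (n + 1) c = x := by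
      intro x
      constructor
      · intro hx
        rw [hsup, ← SetLike.mem_coe, Subgroup.coe_mul_of_left_le_normalizer_right _ _ hnorm] at hx
        obtain ⟨a, ha, b, hb, rfl⟩ := hx
        obtain ⟨i, hi, rfl⟩ : ∃ i, i < 3 ∧ ge k ^ i = a := by
          classical
          rw [SetLike.mem_coe, mem_zpowers_iff_mem_range_orderOf, Finset.mem_image] at ha
          obtain ⟨i, hi, rfl⟩ := ha
          exact ⟨i, hord ▸ Finset.mem_range.1 hi, rfl⟩
        obtain ⟨c, hc, rfl⟩ := (ih b).1 hb
        refine ⟨i * 3 ^ n + c, ?_, ?_⟩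
        · rw [pow_succ]; nlinarith
        · rw [uS, Nat.mul_add_mod', Nat.mod_eq_of_lt hc, add_comm, Nat.add_mul_div_right _ _ (by positivity),
            Nat.div_eq_of_lt hc, zero_add]
      · rintro ⟨c, hc, rfl⟩
        rw [uS, hsup]
        exact Subgroup.mul_mem_sup (Subgroup.npow_mem_zpowers _ _)
          ((ih _).2 ⟨_, Nat.mod_lt _ (by positivity), rfl⟩)
    refine ⟨hmem, ?_⟩
    have hdisj : Disjoint (Subgroup.zpowers (ge k)) (Us n) := by
      rw [Subgroup.disjoint_def]
      intro x hx hxU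
      by_contra hne
      apply hgnot
      have h3 : Nat.card (Subgroup.zpowers (ge k)) = 3 := by rw [Nat.card_zpowers, hord]
      have : Subgroup.zpowers x = Subgroup.zpowers (ge k) := by
        refine Subgroup.eq_of_le_of_card_ge (Subgroup.zpowers_le.2 hx) ?_
        rw [h3, Nat.card_zpowers]
        have hdvd := Subgroup.orderOf_dvd_natCard _ hx
        rw [h3] at hdvd
        rcases (Nat.dvd_prime Nat.prime_three).1 hdvd with h | h
        · exact absurd (orderOf_eq_one_iff.1 h) hne
        · omega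
      have h' : ge k ∈ Subgroup.zpowers x := this ▸ Subgroup.mem_zpowers _
      exact Subgroup.zpowers_le.2 hxU h'
    have hc : Nat.card (Us (n + 1)) =
        Nat.card (Subgroup.zpowers (ge k)) * Nat.card (Us n) := by
      rw [← Nat.card_prod]
      refine (Nat.card_congr (Equiv.ofBijective
        (fun p : Subgroup.zpowers (ge k) × Us n => (⟨(p.1 : OmG) * p.2,
          hsup ▸ Subgroup.mul_mem_sup p.1.2 p.2.2⟩ : Us (n + 1))) ⟨?_, ?_⟩)).symm
      · exact fun p q h => Subgroup.mul_injective_of_disjoint hdisj (congrArg Subtype.val h)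
      · rintro ⟨x, hx⟩
        rw [hsup, ← SetLike.mem_coe, Subgroup.coe_mul_of_left_le_normalizer_right _ _ hnorm] at hx
        obtain ⟨a, ha, b, hb, rfl⟩ := hx
        exact ⟨(⟨a, ha⟩, ⟨b, hb⟩), rfl⟩
    rw [hc, ihc, Nat.card_zpowers, hord, pow_succ, mul_comm]

end Cfsg.Agent.Lib.OmegaSeven
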