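import Cfsg.Agent.Lib.OmegaSeven.Check

/-!
Kernel checks on the root elements.
-/

set_option autoImplicit false
set_option maxRecDepth 100000
set_option maxHeartbeats 0

namespace Cfsg.Agent.Lib.OmegaSeven

/-- Their words. -/
def wS : ℕ → ℕ → List Cols
  | 0, _ => []
  | n + 1, c => List.replicate (c / 3 ^ n) (gen (8 - n)) ++ wS n (c % 3 ^ n)

/-- Words of the first five root groups. -/
def hS : ℕ → ℕ → List Cols
  | 0, _ => []
  | m + 1, h => List.replicate (h / 3 ^ m) (gen (4 - m)) ++ hS m (h % 3 ^ m)

theorem gen_check : ((List.range 18).all fun k => Good (gen k) && eqW [gen k, gen k, gen k] [] &&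
    (allV 7).all fun v => qN (ap (gen k) v) == qN v) = true := by decide +kernel

theorem pre_check : ((List.range 243).all fun h => eqW [pre h] (hS 5 h)) = true := by decide +kernel

theorem suf_check : ((List.range 81).all fun l => eqW [suf l] (wS 4 l)) = true := by decide +kernel

/-- Commutation certificate table. -/
def conjTab : List (List ℕ) := [[2187, 990, 252, 114, 30, 9, 3, 1], [891, 299, 81, 27, 15, 3, 1],
  [243, 81, 27, 9, 5, 1], [81, 28, 9, 3, 1], [27, 10, 3, 1], [9, 3, 1], [3, 1], [1]]

/-- Commutation certificate. -/
def conjCode (k j : ℕ) : ℕ := (conjTab.getD k []).getD (j - k - 1) 0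

theorem conj_check : ((List.range 9).all fun k => (List.range 9).all fun j =>
    decide (j ≤ k) || (decide (conjCode k j < 3 ^ (8 - k)) &&
      eqW [gen k, gen j] (wS (8 - k) (conjCode k j) ++ [gen k]))) = true := by decide +kernel

theorem notMem_check : ((List.range 9).all fun k => (List.range (3 ^ (8 - k))).all fun c =>
    (List.range 7).any fun i => neW [gen k] (wd c) i) = true := by decide +kernel

end Cfsg.Agent.Lib.OmegaSeven
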