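import Cfsg.Agent.Lib.OmegaSeven.Distinct

/-!
`Ω₇(3)` has seven classes of subgroups of order 3.
-/

set_option autoImplicit false
set_option maxRecDepth 100000

namespace Cfsg.Agent.Lib.OmegaSeven

open Matrix Cfsg.Agent.Lib.Classical Cfsg.Agent.Lib.Classical.QuadOmega

theorem card_omega : Nat.card OmG = 3 ^ 9 * 232960 := by
  have h := card_POmega_odd (F := ZMod 3) (by decide) (m := 3) le_rfl
  have hc : Nat.card (Cfsg.POmega (ZMod 3) (Cfsg.quadFormOdd 3 (ZMod 3))) = Nat.card OmG := by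
    show (Subgroup.center OmG).index = _
    rw [center_eq_bot, Subgroup.index_bot]
  rw [hc, ZMod.card] at h
  simp [Finset.prod_range_succ] at h
  omega

theorem exists_hit {x : OmG} (hx : orderOf x = 3) : Hit x := by
  obtain ⟨hmem, hcard⟩ := us_facts 9 le_rfl
  have hU : IsPGroup 3 (Us 9) := IsPGroup.of_card hcard
  obtain ⟨P, hP⟩ := hU.exists_le_sylow
  have hPU : Us 9 = (P : Subgroup OmG) := by
    refine Subgroup.eq_of_le_of_card_ge hP ?_
    obtain ⟨k, hk⟩ := P.isPGroup'.exists_card_eq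
    have hd : 3 ^ k ∣ 3 ^ 9 * 232960 := by rw [← hk, ← card_omega]; exact Subgroup.card_subgroup_dvd_card _
    have hk9 : k ≤ 9 := by
      by_contra hlt
      have : 3 ^ 10 ∣ 3 ^ 9 * 232960 := (pow_dvd_pow 3 (by omega)).trans hd
      norm_num at this
    rw [hk, hcard]
    exact Nat.pow_le_pow_right (by norm_num) hk9
  have hx3 : x ^ 3 = 1 := orderOf_dvd_iff_pow_eq_one.1 hx.dvd
  obtain ⟨Q, hQ⟩ := (IsPGroup.of_card (p := 3) (n := 1) (G := Subgroup.zpowers x)
    (by rw [Nat.card_zpowers, hx, pow_one])).exists_le_sylow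
  obtain ⟨a, ha⟩ := MulAction.exists_smul_eq OmG Q P
  have hm : a * x * a⁻¹ ∈ Us 9 := by
    rw [hPU, ← ha]
    exact Subgroup.smul_mem_pointwise_smul x (MulAut.conj a) _ (hQ (Subgroup.mem_zpowers x))
  obtain ⟨c, hc, hce⟩ := (hmem _).1 hm
  have hc' : c < 19683 := by norm_num at hc; exact hc
  have h3 : el c ^ 3 = 1 := by rw [el, hce, conj_pow, hx3, mul_one, mul_inv_cancel]
  have hc0 : c ≠ 0 := by
    rintro rfl
    have : a * x * a⁻¹ = 1 := by rw [← hce]; simp [uS]
    have hx1 : x = 1 := by simpa using this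
    rw [hx1, orderOf_one] at hx
    exact absurd hx (by norm_num)
  obtain ⟨i, g, e, he, h⟩ := hit_of_kind _ c hc' (Nat.lt_succ_self _) (kind_ne_zero hc' hc0 h3) h3
  refine ⟨i, g * a, e, he, ?_⟩
  rw [← h, el, hce]
  group

theorem classes : ∃ Y : Fin 7 → Subgroup (Cfsg.POmega (ZMod 3) (Cfsg.quadFormOdd 3 (ZMod 3))),
    (∀ i, Nat.card (Y i) = 3) ∧
    (∀ i j, (∃ g : Cfsg.POmega (ZMod 3) (Cfsg.quadFormOdd 3 (ZMod 3)),
      (Y i).map (MulAut.conj g).toMonoidHom = Y j) → i = j) ∧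
    (∀ X : Subgroup (Cfsg.POmega (ZMod 3) (Cfsg.quadFormOdd 3 (ZMod 3))), Nat.card X = 3 →
      ∃ i, ∃ g : Cfsg.POmega (ZMod 3) (Cfsg.quadFormOdd 3 (ZMod 3)),
        X.map (MulAut.conj g).toMonoidHom = Y i) := by
  let π := QuotientGroup.mk' (Subgroup.center OmG)
  have hinj : Function.Injective π := by
    rw [← MonoidHom.ker_eq_bot_iff, QuotientGroup.ker_mk', center_eq_bot]
  have hsur : Function.Surjective π := QuotientGroup.mk'_surjective _
  have hord : ∀ i, orderOf (rep i) = 3 := fun i =>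
    orderOf_eq_prime (rep_data i).2.1 (rep_data i).2.2
  have hz : ∀ i e, (e = 1 ∨ e = 2) → Subgroup.zpowers (π (rep i ^ e)) = Subgroup.zpowers (π (rep i)) := by
    rintro i e (rfl | rfl)
    · rw [pow_one]
    · refine le_antisymm (Subgroup.zpowers_le.2 ?_) (Subgroup.zpowers_le.2 ⟨2, ?_⟩)
      · rw [map_pow]; exact Subgroup.npow_mem_zpowers _ _
      · show π (rep i ^ 2) ^ ((2 : ℕ) : ℤ) = π (rep i)
        rw [zpow_natCast, ← map_pow, ← pow_mul, show 2 * 2 = 3 + 1 from rfl, pow_add, (rep_data i).2.1,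
          one_mul, pow_one]
  refine ⟨fun i => Subgroup.zpowers (π (rep i)), fun i => ?_, ?_, ?_⟩
  · rw [Nat.card_zpowers, orderOf_injective π hinj, hord]
  · rintro i j ⟨g, hg⟩
    obtain ⟨g, rfl⟩ := hsur g
    rw [MonoidHom.map_zpowers] at hg
    have hmem : π (g * rep i * g⁻¹) ∈ Subgroup.zpowers (π (rep j)) := by
      beta_reduce at hg
      rw [← hg]
      exact (show π (g * rep i * g⁻¹) = (MulAut.conj (π g)).toMonoidHom (π (rep i)) by simp) ▸
        Subgroup.mem_zpowers _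
    beta_reduce at hg
    rw [← MonoidHom.map_zpowers, Subgroup.mem_map] at hmem
    obtain ⟨y, hy, hye⟩ := hmem
    obtain rfl := hinj hye
    classical
    rw [mem_zpowers_iff_mem_range_orderOf, Finset.mem_image] at hy
    obtain ⟨e, he, hee⟩ := hy
    rw [Finset.mem_range, hord] at he
    have he0 : e ≠ 0 := fun e0 => by
      rw [e0, pow_zero] at hee
      exact (rep_data i).2.2 (by simpa using hee.symm)
    exact rep_unique i j g (by omega) hee.symm
  · intro X hX
    obtain ⟨x, hx⟩ := (isCyclic_of_prime_card (α := X) (p := 3) hX).exists_generator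
    have hXz : X = Subgroup.zpowers (x : Cfsg.POmega (ZMod 3) (Cfsg.quadFormOdd 3 (ZMod 3))) := by
      refine le_antisymm (fun y hy => ?_) (Subgroup.zpowers_le.2 x.2)
      obtain ⟨k, hk⟩ := hx ⟨y, hy⟩
      exact ⟨k, congrArg Subtype.val hk⟩
    obtain ⟨y, hy⟩ := hsur (x : Cfsg.POmega (ZMod 3) (Cfsg.quadFormOdd 3 (ZMod 3)))
    have hy3 : orderOf y = 3 := by
      rw [← orderOf_injective π hinj, hy, ← Nat.card_zpowers, ← hXz, hX]
    obtain ⟨i, g, e, he, h⟩ := exists_hit hy3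
    refine ⟨i, π g, ?_⟩
    show X.map (MulAut.conj (π g)).toMonoidHom = Subgroup.zpowers (π (rep i))
    rw [← hz i e he, ← h, hXz, MonoidHom.map_zpowers, ← hy]
    simp

end Cfsg.Agent.Lib.OmegaSeven
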